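import Cfsg.Agent.H611.KS.Base
import Cfsg.Agent.OddHalf.Small.Mathieu
import Cfsg.Agent.OddHalf.Small.M24Char
import Cfsg.Agent.OddHalf.Small.J3
import Cfsg.Agent.EvenType.CTwoCard
import Cfsg.Agent.SevenCases.SporJ4
import Cfsg.Agent.SevenCases.SporCo2
import Cfsg.Agent.SevenCases.SporTh
import Cfsg.Agent.S1703
import Cfsg.Agent.BiChar.SmallCard
import Cfsg.Agent.Th.Main1700
import Cfsg.Agent.H413.JOneLocal

/-!
# S4577: the rows `M₂₂`, `M₂₃`, `M₂₄`, `J₃`, `J₄`, `Co₂`, `Th` (characteristic 2 type) and `J₁` (helper611)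
-/

set_option autoImplicit false

open Cfsg Subgroup Cfsg.Agent.H613.KS

namespace Cfsg.Agent.H611.KS

universe u

variable {S : Type u} [Group S] [Finite S]

theorem E_M22 (h : Spor.IsoM22 S) : NoCfg S :=
  charTwo (OddHalf.Small.Mathieu.m22 h) (by rw [EvenType.CTwoCard.m22 h]; norm_num)

theorem E_M23 (h : Spor.IsoM23 S) : NoCfg S :=
  charTwo (OddHalf.Small.Mathieu.m23 h) (by rw [EvenType.CTwoCard.m23 h]; norm_num)

theorem E_M24 (h : Spor.IsoM24 S) : NoCfg S :=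
  charTwo (OddHalf.Small.M24Char.m24 h) (by rw [EvenType.CTwoCard.m24 h]; norm_num)

theorem E_J3 (h : Spor.IsoJ3 S) : NoCfg S :=
  charTwo (OddHalf.Small.J3.j3 S h) (by rw [EvenType.CTwoCard.j3 h]; norm_num)

theorem E_J4 (h : Spor.IsoJ4 S) : NoCfg S := by
  refine charTwo (SevenCases.SporJ4.charTwo h) ?_
  obtain ⟨e⟩ := h
  rw [Nat.card_congr e.toEquiv, Cfsg.Agent.S1703.result.2]
  norm_num

theorem E_Co2 (h : Spor.IsoCo2 S) : NoCfg S := by
  refine charTwo (SevenCases.SporCo2.charTwo h) ?_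
  obtain ⟨e⟩ := h
  rw [Nat.card_congr e.toEquiv, BiChar.Small.card_Co2]
  norm_num

theorem E_Th (h : Spor.IsoTh S) : NoCfg S := by
  refine charTwo (SevenCases.SporTh.charTwo h) ?_
  obtain ⟨e⟩ := h
  rw [Nat.card_congr e.toEquiv, Cfsg.Agent.Th.Main1700.final.2.1]
  norm_num

theorem E_J1 (h : Spor.IsoJ1 S) : NoCfg S := by
  intro D x hc
  have h1 := dvd_card hc
  obtain ⟨e⟩ := h
  rw [Nat.card_congr e.toEquiv, Cfsg.Agent.H413.JOneLocal.card_J1] at h1
  norm_num at h1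

end Cfsg.Agent.H611.KS
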